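import Cfsg.Agent.Lib.H35.TCMHeF.Chk
set_option autoImplicit false
set_option maxRecDepth 100000
set_option linter.all false
namespace H35.TCMHeF
open H35.TC
section
variable {G : Type} [Group G] {g : Lt → G} {H : Subgroup G}
/-- hypotheses -/
abbrev Hy (g : Lt → G) (H : Subgroup G) : Prop := (∀ x, g (inv x) = (g x)⁻¹) ∧ (∀ r ∈ rels, (r.map g).prod = 1) ∧ ∀ r ∈ subs, (r.map g).prod ∈ H
theorem hM0 : 0 < M := by decide
theorem hat {r W : List Lt} {x : Lt} (hr : (r.map g).prod = 1) (k : ℕ) (h : r.drop k ++ r.take k = W ++ [x]) (z : G ⧸ H) : fa g x (act (fa g) W z) = z := hole_at hr k h z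
theorem pat (hy : Hy g H) {r W1 W2 : List Lt} (hr : (r.map g).prod = 1) (k : ℕ) (h : r.drop k ++ r.take k = W1 ++ (W2.map inv).reverse) (z : G ⧸ H) : act (fa g) W1 z = act (fa g) W2 z := pair_at hy.1 hr k h z
theorem ivt (hy : Hy g H) (x x' : Lt) (hx : inv x = x') (z : G ⧸ H) : fa g x (fa g x' z) = z := inv_rel hy.1 x x' hx z
theorem rf_0 (hy : Hy g H) : (([.b, .b] : List Lt).map g).prod = 1 := hy.2.1 _ (by decide +kernel)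
theorem rb_0 (hy : Hy g H) : (([.b, .b] : List Lt).map g).prod = 1 := inv_at hy.1 (rf_0 hy)
theorem rf_1 (hy : Hy g H) : (([.z, .a, .zi, .ai] : List Lt).map g).prod = 1 := hy.2.1 _ (by decide +kernel)
theorem rb_1 (hy : Hy g H) : (([.a, .z, .ai, .zi] : List Lt).map g).prod = 1 := inv_at hy.1 (rf_1 hy)
theorem rf_2 (hy : Hy g H) : (([.z, .b, .zi, .b] : List Lt).map g).prod = 1 := hy.2.1 _ (by decide +kernel)
theorem rb_2 (hy : Hy g H) : (([.b, .z, .b, .zi] : List Lt).map g).prod = 1 := inv_at hy.1 (rf_2 hy)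
theorem rf_3 (hy : Hy g H) : (([.a, .a, .a, .b, .a, .a, .a, .b, .a, .a, .a, .b, .zi] : List Lt).map g).prod = 1 := hy.2.1 _ (by decide +kernel)
theorem rb_3 (hy : Hy g H) : (([.z, .b, .ai, .ai, .ai, .b, .ai, .ai, .ai, .b, .ai, .ai, .ai] : List Lt).map g).prod = 1 := inv_at hy.1 (rf_3 hy)
theorem rf_4 (hy : Hy g H) : (([.b, .ai, .ai, .b, .a, .a, .b, .a, .b, .ai, .ai, .b, .a, .a, .b, .a] : List Lt).map g).prod = 1 := hy.2.1 _ (by decide +kernel)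
theorem rb_4 (hy : Hy g H) : (([.ai, .b, .ai, .ai, .b, .a, .a, .b, .ai, .b, .ai, .ai, .b, .a, .a, .b] : List Lt).map g).prod = 1 := inv_at hy.1 (rf_4 hy)
theorem rf_5 (hy : Hy g H) : (([.a, .a, .a, .a, .a, .a, .a, .a, .a, .a, .a, .a, .a, .a, .a, .a, .a] : List Lt).map g).prod = 1 := hy.2.1 _ (by decide +kernel)
theorem rb_5 (hy : Hy g H) : (([.ai, .ai, .ai, .ai, .ai, .ai, .ai, .ai, .ai, .ai, .ai, .ai, .ai, .ai, .ai, .ai, .ai] : List Lt).map g).prod = 1 := inv_at hy.1 (rf_5 hy)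
theorem rf_6 (hy : Hy g H) : (([.z, .z, .z, .z, .z, .z, .z, .z, .z, .z, .z, .z, .z, .z, .z, .z, .z, .z, .z, .z, .z, .z, .z, .z, .z, .z, .z, .z, .z, .z, .z, .z, .z, .z, .z, .z, .z, .z, .z, .z, .z, .z, .z, .z, .z, .z, .z, .z, .z, .z, .z, .z, .z, .z, .z, .z, .z, .z, .z, .z, .z, .z, .z, .z, .z, .z, .z, .z, .z, .z, .z, .z, .z, .z, .z, .z, .z, .z, .z, .z, .z, .z, .z, .z, .z, .z, .z, .z, .z, .z, .z, .z, .z, .z, .z, .z, .z, .z, .z, .z, .z, .z, .z, .z, .z] : List Lt).map g).prod = 1 := hy.2.1 _ (by decide +kernel)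
theorem rb_6 (hy : Hy g H) : (([.zi, .zi, .zi, .zi, .zi, .zi, .zi, .zi, .zi, .zi, .zi, .zi, .zi, .zi, .zi, .zi, .zi, .zi, .zi, .zi, .zi, .zi, .zi, .zi, .zi, .zi, .zi, .zi, .zi, .zi, .zi, .zi, .zi, .zi, .zi, .zi, .zi, .zi, .zi, .zi, .zi, .zi, .zi, .zi, .zi, .zi, .zi, .zi, .zi, .zi, .zi, .zi, .zi, .zi, .zi, .zi, .zi, .zi, .zi, .zi, .zi, .zi, .zi, .zi, .zi, .zi, .zi, .zi, .zi, .zi, .zi, .zi, .zi, .zi, .zi, .zi, .zi, .zi, .zi, .zi, .zi, .zi, .zi, .zi, .zi, .zi, .zi, .zi, .zi, .zi, .zi, .zi, .zi, .zi, .zi, .zi, .zi, .zi, .zi, .zi, .zi, .zi, .zi, .zi, .zi] : List Lt).map g).prod = 1 := inv_at hy.1 (rf_6 hy)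
theorem rf_7 (hy : Hy g H) : (([.a, .ai] : List Lt).map g).prod = 1 := hy.2.1 _ (by decide +kernel)
theorem rb_7 (hy : Hy g H) : (([.a, .ai] : List Lt).map g).prod = 1 := inv_at hy.1 (rf_7 hy)
theorem rf_8 (hy : Hy g H) : (([.ai, .a] : List Lt).map g).prod = 1 := hy.2.1 _ (by decide +kernel)
theorem rb_8 (hy : Hy g H) : (([.ai, .a] : List Lt).map g).prod = 1 := inv_at hy.1 (rf_8 hy)
theorem rf_9 (hy : Hy g H) : (([.z, .zi] : List Lt).map g).prod = 1 := hy.2.1 _ (by decide +kernel)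
theorem rb_9 (hy : Hy g H) : (([.z, .zi] : List Lt).map g).prod = 1 := inv_at hy.1 (rf_9 hy)
theorem rf_10 (hy : Hy g H) : (([.zi, .z] : List Lt).map g).prod = 1 := hy.2.1 _ (by decide +kernel)
theorem rb_10 (hy : Hy g H) : (([.zi, .z] : List Lt).map g).prod = 1 := inv_at hy.1 (rf_10 hy)
/-- the points of the nodes -/
noncomputable def cP (g : Lt → G) (H : Subgroup G) : ℕ → G ⧸ H := cc (fa g) lt P ((1 : G) : G ⧸ H)
/-- soundness of an entry -/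
abbrev Gd (g : Lt → G) (H : Subgroup G) (x : Lt) (u : ℕ) : Prop := Good (fa g) T MG M (cP g H) x u
/-- soundness of a merge -/
abbrev GdM (g : Lt → G) (H : Subgroup G) (u : ℕ) : Prop := GoodM (fa g) T MG M (cP g H) u
theorem dp_a_0_s (hy : Hy g H)
    (j u : ℕ) (hu : u < M) (h : dp_a_0 j u = true) : Gd g H Lt.a u := by
  unfold dp_a_0 at h
  rcases brec_true h with h | h
  · exact lF3_good (T := T) (x := Lt.a) hM0 .z .ai .zi (hat (rb_1 hy) 1 rfl) h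
  · exact lS_good (T := T) (x := Lt.a) hM0 hu [Lt.ai] (hat (rf_7 hy) 1 rfl) h
theorem dp_a_1_s (hy : Hy g H)
    (j u : ℕ) (hu : u < M) (h : dp_a_1 j u = true) : Gd g H Lt.a u := by
  unfold dp_a_1 at h
  rcases brec_true h with h | h
  · exact lF_good (T := T) (x := Lt.a) hM0 [Lt.a, Lt.a, Lt.b, Lt.zi, Lt.a, Lt.a, Lt.a, Lt.b, Lt.a, Lt.a, Lt.a, Lt.b] (hat (rf_3 hy) 9 rfl) h
  · exact lF_good (T := T) (x := Lt.a) hM0 [Lt.a, Lt.b, Lt.ai, Lt.b, Lt.ai, Lt.ai, Lt.b, Lt.a, Lt.a, Lt.b, Lt.ai, Lt.b, Lt.ai, Lt.ai, Lt.b] (hat (rb_4 hy) 6 rfl) h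
theorem dp_a_2_s (hy : Hy g H)
    (j u : ℕ) (hu : u < M) (h : dp_a_2 j u = true) : Gd g H Lt.a u := by
  unfold dp_a_2 at h
  rcases brec_true h with h | h
  · exact lF_good (T := T) (x := Lt.a) hM0 [Lt.a, Lt.a, Lt.b, Lt.a, Lt.a, Lt.a, Lt.b, Lt.a, Lt.a, Lt.a, Lt.b, Lt.zi] (hat (rf_3 hy) 1 rfl) h
  · exact dp_a_1_s hy j u hu h
theorem dp_a_3_s (hy : Hy g H)
    (j u : ℕ) (hu : u < M) (h : dp_a_3 j u = true) : Gd g H Lt.a u := by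
  unfold dp_a_3 at h
  rcases brec_true h with h | h
  · exact lF_good (T := T) (x := Lt.a) hM0 [Lt.b, Lt.a, Lt.a, Lt.a, Lt.b, Lt.a, Lt.a, Lt.a, Lt.b, Lt.zi, Lt.a, Lt.a] (hat (rf_3 hy) 3 rfl) h
  · exact dp_a_2_s hy j u hu h
theorem dp_a_4_s (hy : Hy g H)
    (j u : ℕ) (hu : u < M) (h : dp_a_4 j u = true) : Gd g H Lt.a u := by
  unfold dp_a_4 at h
  rcases brec_true h with h | h
  · exact lF_good (T := T) (x := Lt.a) hM0 [Lt.b, Lt.a, Lt.a, Lt.a, Lt.b, Lt.zi, Lt.a, Lt.a, Lt.a, Lt.b, Lt.a, Lt.a] (hat (rf_3 hy) 7 rfl) h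
  · exact lS_good (T := T) (x := Lt.a) hM0 hu [Lt.a, Lt.b, Lt.a, Lt.b, Lt.ai, Lt.ai, Lt.b, Lt.a, Lt.a, Lt.b, Lt.a, Lt.b, Lt.ai, Lt.ai, Lt.b] (hat (rf_4 hy) 5 rfl) h
theorem dp_a_5_s (hy : Hy g H)
    (j u : ℕ) (hu : u < M) (h : dp_a_5 j u = true) : Gd g H Lt.a u := by
  unfold dp_a_5 at h
  rcases brec_true h with h | h
  · exact lF_good (T := T) (x := Lt.a) hM0 [Lt.b, Lt.a, Lt.b, Lt.ai, Lt.ai, Lt.b, Lt.a, Lt.a, Lt.b, Lt.a, Lt.b, Lt.ai, Lt.ai, Lt.b, Lt.a] (hat (rf_4 hy) 6 rfl) h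
  · exact lS_good (T := T) (x := Lt.a) hM0 hu [Lt.a, Lt.a, Lt.b, Lt.zi, Lt.a, Lt.a, Lt.a, Lt.b, Lt.a, Lt.a, Lt.a, Lt.b] (hat (rf_3 hy) 9 rfl) h
theorem dp_a_6_s (hy : Hy g H)
    (j u : ℕ) (hu : u < M) (h : dp_a_6 j u = true) : Gd g H Lt.a u := by
  unfold dp_a_6 at h
  rcases brec_true h with h | h
  · exact lS_good (T := T) (x := Lt.a) hM0 hu [Lt.b, Lt.a, Lt.b, Lt.ai, Lt.ai, Lt.b, Lt.a, Lt.a, Lt.b, Lt.a, Lt.b, Lt.ai, Lt.ai, Lt.b, Lt.a] (hat (rf_4 hy) 6 rfl) h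
  · exact dp_a_5_s hy j u hu h
theorem dp_a_7_s (hy : Hy g H)
    (j u : ℕ) (hu : u < M) (h : dp_a_7 j u = true) : Gd g H Lt.a u := by
  unfold dp_a_7 at h
  rcases brec_true h with h | h
  · exact dp_a_4_s hy j u hu h
  · exact dp_a_6_s hy j u hu h
theorem dp_a_8_s (hy : Hy g H)
    (j u : ℕ) (hu : u < M) (h : dp_a_8 j u = true) : Gd g H Lt.a u := by
  unfold dp_a_8 at h
  rcases brec_true h with h | h
  · exact dp_a_3_s hy j u hu h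
  · exact dp_a_7_s hy j u hu h
theorem dp_a_9_s (hy : Hy g H)
    (j u : ℕ) (hu : u < M) (h : dp_a_9 j u = true) : Gd g H Lt.a u := by
  unfold dp_a_9 at h
  rcases brec_true h with h | h
  · exact lS_good (T := T) (x := Lt.a) hM0 hu [Lt.a, Lt.a, Lt.b, Lt.a, Lt.a, Lt.a, Lt.b, Lt.zi, Lt.a, Lt.a, Lt.a, Lt.b] (hat (rf_3 hy) 5 rfl) h
  · exact lS_good (T := T) (x := Lt.a) hM0 hu [Lt.a, Lt.b, Lt.ai, Lt.b, Lt.ai, Lt.ai, Lt.b, Lt.a, Lt.a, Lt.b, Lt.ai, Lt.b, Lt.ai, Lt.ai, Lt.b] (hat (rb_4 hy) 6 rfl) h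
theorem dp_a_10_s (hy : Hy g H)
    (j u : ℕ) (hu : u < M) (h : dp_a_10 j u = true) : Gd g H Lt.a u := by
  unfold dp_a_10 at h
  rcases brec_true h with h | h
  · exact lF_good (T := T) (x := Lt.a) hM0 [Lt.a, Lt.a, Lt.b, Lt.a, Lt.a, Lt.a, Lt.b, Lt.zi, Lt.a, Lt.a, Lt.a, Lt.b] (hat (rf_3 hy) 5 rfl) h
  · exact lH_good (T := T) (x := Lt.a) hM0 [] [] (by rw [show cP g H 0 = _ from cc_zero]; exact sub_rel hy.1 (hy.2.2 _ (by decide))) h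
theorem dp_a_11_s (hy : Hy g H)
    (j u : ℕ) (hu : u < M) (h : dp_a_11 j u = true) : Gd g H Lt.a u := by
  unfold dp_a_11 at h
  rcases brec_true h with h | h
  · exact lF_good (T := T) (x := Lt.a) hM0 [Lt.b, Lt.ai, Lt.ai, Lt.b, Lt.a, Lt.a, Lt.b, Lt.a, Lt.b, Lt.ai, Lt.ai, Lt.b, Lt.a, Lt.a, Lt.b] (hat (rf_4 hy) 0 rfl) h
  · exact lF_good (T := T) (x := Lt.a) hM0 [Lt.a, Lt.b, Lt.a, Lt.a, Lt.a, Lt.b, Lt.a, Lt.a, Lt.a, Lt.b, Lt.zi, Lt.a] (hat (rf_3 hy) 2 rfl) h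
theorem dp_a_12_s (hy : Hy g H)
    (j u : ℕ) (hu : u < M) (h : dp_a_12 j u = true) : Gd g H Lt.a u := by
  unfold dp_a_12 at h
  rcases brec_true h with h | h
  · exact lF_good (T := T) (x := Lt.a) hM0 [Lt.a, Lt.b, Lt.a, Lt.b, Lt.ai, Lt.ai, Lt.b, Lt.a, Lt.a, Lt.b, Lt.a, Lt.b, Lt.ai, Lt.ai, Lt.b] (hat (rf_4 hy) 5 rfl) h
  · exact dp_a_11_s hy j u hu h
theorem dp_a_13_s (hy : Hy g H)
    (j u : ℕ) (hu : u < M) (h : dp_a_13 j u = true) : Gd g H Lt.a u := by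
  unfold dp_a_13 at h
  rcases brec_true h with h | h
  · exact dp_a_10_s hy j u hu h
  · exact dp_a_12_s hy j u hu h
theorem dp_a_14_s (hy : Hy g H)
    (j u : ℕ) (hu : u < M) (h : dp_a_14 j u = true) : Gd g H Lt.a u := by
  unfold dp_a_14 at h
  rcases brec_true h with h | h
  · exact dp_a_9_s hy j u hu h
  · exact dp_a_13_s hy j u hu h
theorem dp_a_15_s (hy : Hy g H)
    (j u : ℕ) (hu : u < M) (h : dp_a_15 j u = true) : Gd g H Lt.a u := by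
  unfold dp_a_15 at h
  rcases brec_true h with h | h
  · exact lS_good (T := T) (x := Lt.a) hM0 hu [Lt.zi, Lt.ai, Lt.z] (hat (rf_1 hy) 2 rfl) h
  · exact lF_good (T := T) (x := Lt.a) hM0 [Lt.a, Lt.a, Lt.a, Lt.a, Lt.a, Lt.a, Lt.a, Lt.a, Lt.a, Lt.a, Lt.a, Lt.a, Lt.a, Lt.a, Lt.a, Lt.a] (hat (rf_5 hy) 0 rfl) h
theorem dp_a_16_s (hy : Hy g H)
    (j u : ℕ) (hu : u < M) (h : dp_a_16 j u = true) : Gd g H Lt.a u := by
  unfold dp_a_16 at h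
  rcases brec_true h with h | h
  · exact lF_good (T := T) (x := Lt.a) hM0 [Lt.b, Lt.ai, Lt.b, Lt.ai, Lt.ai, Lt.b, Lt.a, Lt.a, Lt.b, Lt.ai, Lt.b, Lt.ai, Lt.ai, Lt.b, Lt.a] (hat (rb_4 hy) 7 rfl) h
  · exact lS_good (T := T) (x := Lt.a) hM0 hu [Lt.a, Lt.b, Lt.zi, Lt.a, Lt.a, Lt.a, Lt.b, Lt.a, Lt.a, Lt.a, Lt.b, Lt.a] (hat (rf_3 hy) 10 rfl) h
theorem dp_a_17_s (hy : Hy g H)
    (j u : ℕ) (hu : u < M) (h : dp_a_17 j u = true) : Gd g H Lt.a u := by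
  unfold dp_a_17 at h
  rcases brec_true h with h | h
  · exact lS_good (T := T) (x := Lt.a) hM0 hu [Lt.a, Lt.b, Lt.a, Lt.a, Lt.a, Lt.b, Lt.a, Lt.a, Lt.a, Lt.b, Lt.zi, Lt.a] (hat (rf_3 hy) 2 rfl) h
  · exact dp_a_16_s hy j u hu h
theorem dp_a_18_s (hy : Hy g H)
    (j u : ℕ) (hu : u < M) (h : dp_a_18 j u = true) : Gd g H Lt.a u := by
  unfold dp_a_18 at h
  rcases brec_true h with h | h
  · exact dp_a_15_s hy j u hu h
  · exact dp_a_17_s hy j u hu h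
theorem dp_a_19_s (hy : Hy g H)
    (j u : ℕ) (hu : u < M) (h : dp_a_19 j u = true) : Gd g H Lt.a u := by
  unfold dp_a_19 at h
  rcases brec_true h with h | h
  · exact lS_good (T := T) (x := Lt.a) hM0 hu [Lt.a, Lt.b, Lt.a, Lt.a, Lt.a, Lt.b, Lt.zi, Lt.a, Lt.a, Lt.a, Lt.b, Lt.a] (hat (rf_3 hy) 6 rfl) h
  · exact lS_good (T := T) (x := Lt.a) hM0 hu [Lt.b, Lt.ai, Lt.ai, Lt.b, Lt.a, Lt.a, Lt.b, Lt.a, Lt.b, Lt.ai, Lt.ai, Lt.b, Lt.a, Lt.a, Lt.b] (hat (rf_4 hy) 0 rfl) h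
theorem dp_a_20_s (hy : Hy g H)
    (j u : ℕ) (hu : u < M) (h : dp_a_20 j u = true) : Gd g H Lt.a u := by
  unfold dp_a_20 at h
  rcases brec_true h with h | h
  · exact lS_good (T := T) (x := Lt.a) hM0 hu [Lt.b, Lt.a, Lt.a, Lt.a, Lt.b, Lt.zi, Lt.a, Lt.a, Lt.a, Lt.b, Lt.a, Lt.a] (hat (rf_3 hy) 7 rfl) h
  · exact dp_a_19_s hy j u hu h
theorem dp_a_21_s (hy : Hy g H)
    (j u : ℕ) (hu : u < M) (h : dp_a_21 j u = true) : Gd g H Lt.a u := by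
  unfold dp_a_21 at h
  rcases brec_true h with h | h
  · exact lF_good (T := T) (x := Lt.a) hM0 [Lt.a, Lt.b, Lt.a, Lt.a, Lt.a, Lt.b, Lt.zi, Lt.a, Lt.a, Lt.a, Lt.b, Lt.a] (hat (rf_3 hy) 6 rfl) h
  · exact lF_good (T := T) (x := Lt.a) hM0 [Lt.b, Lt.zi, Lt.a, Lt.a, Lt.a, Lt.b, Lt.a, Lt.a, Lt.a, Lt.b, Lt.a, Lt.a] (hat (rf_3 hy) 11 rfl) h
theorem dp_a_22_s (hy : Hy g H)
    (j u : ℕ) (hu : u < M) (h : dp_a_22 j u = true) : Gd g H Lt.a u := by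
  unfold dp_a_22 at h
  rcases brec_true h with h | h
  · exact lF_good (T := T) (x := Lt.a) hM0 [Lt.a, Lt.b, Lt.zi, Lt.a, Lt.a, Lt.a, Lt.b, Lt.a, Lt.a, Lt.a, Lt.b, Lt.a] (hat (rf_3 hy) 10 rfl) h
  · exact dp_a_21_s hy j u hu h
theorem dp_a_23_s (hy : Hy g H)
    (j u : ℕ) (hu : u < M) (h : dp_a_23 j u = true) : Gd g H Lt.a u := by
  unfold dp_a_23 at h
  rcases brec_true h with h | h
  · exact dp_a_20_s hy j u hu h
  · exact dp_a_22_s hy j u hu h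
theorem dp_a_24_s (hy : Hy g H)
    (j u : ℕ) (hu : u < M) (h : dp_a_24 j u = true) : Gd g H Lt.a u := by
  unfold dp_a_24 at h
  rcases brec_true h with h | h
  · exact dp_a_18_s hy j u hu h
  · exact dp_a_23_s hy j u hu h
theorem dp_a_25_s (hy : Hy g H)
    (j u : ℕ) (hu : u < M) (h : dp_a_25 j u = true) : Gd g H Lt.a u := by
  unfold dp_a_25 at h
  rcases brec_true h with h | h
  · exact dp_a_14_s hy j u hu h
  · exact dp_a_24_s hy j u hu h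
theorem dp_a_26_s (hy : Hy g H)
    (j u : ℕ) (hu : u < M) (h : dp_a_26 j u = true) : Gd g H Lt.a u := by
  unfold dp_a_26 at h
  rcases brec_true h with h | h
  · exact dp_a_8_s hy j u hu h
  · exact dp_a_25_s hy j u hu h
theorem dp_a_27_s (hy : Hy g H)
    (j u : ℕ) (hu : u < M) (h : dp_a_27 j u = true) : Gd g H Lt.a u := by
  unfold dp_a_27 at h
  rcases brec_true h with h | h
  · exact dp_a_0_s hy j u hu h
  · exact dp_a_26_s hy j u hu h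
theorem dp_a_28_s (hy : Hy g H)
    (j u : ℕ) (hu : u < M) (h : dp_a_28 j u = true) : Gd g H Lt.a u := by
  unfold dp_a_28 at h
  rcases brec_true h with h | h
  · rcases brec_true h with h | h
    · exact lF1_good (T := T) (x := Lt.a) hM0 .ai (hat (rf_7 hy) 1 rfl) h
    · exact lF3_good (T := T) (x := Lt.a) hM0 .zi .ai .z (hat (rf_1 hy) 2 rfl) h
  · exact dp_a_27_s hy j u hu h
theorem snd_a (hy : Hy g H)
    (j u : ℕ) (hu : u < M) (h : disp_a j u = true) : Gd g H Lt.a u := by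
  unfold disp_a at h
  rcases brec_true h with h | h
  · rcases brec_true h with h | h
    · exact lPar_good (T := T) (x := Lt.a) (x' := Lt.ai) (by decide) rfl (ivt hy _ _ rfl) h
    · exact lDef_good (T := T) (x := Lt.a) (by decide) rfl h
  · exact dp_a_28_s hy j u hu h
theorem snc_a (hy : Hy g H)
    (j u : ℕ) (hu : u < M) (h : chk_a j u = true) : (T Lt.a u < A ∧ Gd g H Lt.a u) ∨ (A ≤ T Lt.a u ∧ MG u < A) := by
  unfold chk_a at h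
  cases hb : Nat.ble A (T_a u) with
  | true => rw [hb] at h; exact Or.inr ⟨le_of_ble hb, le_of_ble h⟩
  | false => rw [hb] at h; exact Or.inl ⟨lt_of_ble_false hb, snd_a hy j u hu h⟩
theorem dp_ai_0_s (hy : Hy g H)
    (j u : ℕ) (hu : u < M) (h : dp_ai_0 j u = true) : Gd g H Lt.ai u := by
  unfold dp_ai_0 at h
  rcases brec_true h with h | h
  · exact lS_good (T := T) (x := Lt.ai) hM0 hu [Lt.ai, Lt.b, Lt.ai, Lt.ai, Lt.ai, Lt.z, Lt.b, Lt.ai, Lt.ai, Lt.ai, Lt.b, Lt.ai] (hat (rb_3 hy) 8 rfl) h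
  · exact lS_good (T := T) (x := Lt.ai) hM0 hu [Lt.b, Lt.ai, Lt.ai, Lt.ai, Lt.z, Lt.b, Lt.ai, Lt.ai, Lt.ai, Lt.b, Lt.ai, Lt.ai] (hat (rb_3 hy) 9 rfl) h
theorem dp_ai_1_s (hy : Hy g H)
    (j u : ℕ) (hu : u < M) (h : dp_ai_1 j u = true) : Gd g H Lt.ai u := by
  unfold dp_ai_1 at h
  rcases brec_true h with h | h
  · exact lS_good (T := T) (x := Lt.ai) hM0 hu [Lt.a] (hat (rf_7 hy) 0 rfl) h
  · exact dp_ai_0_s hy j u hu h
theorem dp_ai_2_s (hy : Hy g H)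
    (j u : ℕ) (hu : u < M) (h : dp_ai_2 j u = true) : Gd g H Lt.ai u := by
  unfold dp_ai_2 at h
  rcases brec_true h with h | h
  · exact lF_good (T := T) (x := Lt.ai) hM0 [Lt.b, Lt.ai, Lt.ai, Lt.ai, Lt.b, Lt.ai, Lt.ai, Lt.ai, Lt.z, Lt.b, Lt.ai, Lt.ai] (hat (rb_3 hy) 5 rfl) h
  · exact lF_good (T := T) (x := Lt.ai) hM0 [Lt.b, Lt.ai, Lt.ai, Lt.b, Lt.a, Lt.a, Lt.b, Lt.ai, Lt.b, Lt.ai, Lt.ai, Lt.b, Lt.a, Lt.a, Lt.b] (hat (rb_4 hy) 1 rfl) h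
theorem dp_ai_3_s (hy : Hy g H)
    (j u : ℕ) (hu : u < M) (h : dp_ai_3 j u = true) : Gd g H Lt.ai u := by
  unfold dp_ai_3 at h
  rcases brec_true h with h | h
  · exact lS_good (T := T) (x := Lt.ai) hM0 hu [Lt.ai, Lt.ai, Lt.ai, Lt.ai, Lt.ai, Lt.ai, Lt.ai, Lt.ai, Lt.ai, Lt.ai, Lt.ai, Lt.ai, Lt.ai, Lt.ai, Lt.ai, Lt.ai] (hat (rb_5 hy) 0 rfl) h
  · exact dp_ai_2_s hy j u hu h
theorem dp_ai_4_s (hy : Hy g H)
    (j u : ℕ) (hu : u < M) (h : dp_ai_4 j u = true) : Gd g H Lt.ai u := by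
  unfold dp_ai_4 at h
  rcases brec_true h with h | h
  · exact lS_good (T := T) (x := Lt.ai) hM0 hu [Lt.ai, Lt.b, Lt.ai, Lt.ai, Lt.ai, Lt.b, Lt.ai, Lt.ai, Lt.ai, Lt.z, Lt.b, Lt.ai] (hat (rb_3 hy) 4 rfl) h
  · exact lF_good (T := T) (x := Lt.ai) hM0 [Lt.b, Lt.a, Lt.a, Lt.b, Lt.ai, Lt.b, Lt.ai, Lt.ai, Lt.b, Lt.a, Lt.a, Lt.b, Lt.ai, Lt.b, Lt.ai] (hat (rb_4 hy) 4 rfl) h
theorem dp_ai_5_s (hy : Hy g H)
    (j u : ℕ) (hu : u < M) (h : dp_ai_5 j u = true) : Gd g H Lt.ai u := by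
  unfold dp_ai_5 at h
  rcases brec_true h with h | h
  · exact lF_good (T := T) (x := Lt.ai) hM0 [Lt.ai, Lt.b, Lt.a, Lt.a, Lt.b, Lt.a, Lt.b, Lt.ai, Lt.ai, Lt.b, Lt.a, Lt.a, Lt.b, Lt.a, Lt.b] (hat (rf_4 hy) 2 rfl) h
  · exact dp_ai_4_s hy j u hu h
theorem dp_ai_6_s (hy : Hy g H)
    (j u : ℕ) (hu : u < M) (h : dp_ai_6 j u = true) : Gd g H Lt.ai u := by
  unfold dp_ai_6 at h
  rcases brec_true h with h | h
  · exact dp_ai_3_s hy j u hu h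
  · exact dp_ai_5_s hy j u hu h
theorem dp_ai_7_s (hy : Hy g H)
    (j u : ℕ) (hu : u < M) (h : dp_ai_7 j u = true) : Gd g H Lt.ai u := by
  unfold dp_ai_7 at h
  rcases brec_true h with h | h
  · exact lF_good (T := T) (x := Lt.ai) hM0 [Lt.z, Lt.b, Lt.ai, Lt.ai, Lt.ai, Lt.b, Lt.ai, Lt.ai, Lt.ai, Lt.b, Lt.ai, Lt.ai] (hat (rb_3 hy) 0 rfl) h
  · exact lS_good (T := T) (x := Lt.ai) hM0 hu [Lt.ai, Lt.ai, Lt.b, Lt.ai, Lt.ai, Lt.ai, Lt.z, Lt.b, Lt.ai, Lt.ai, Lt.ai, Lt.b] (hat (rb_3 hy) 7 rfl) h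
theorem dp_ai_8_s (hy : Hy g H)
    (j u : ℕ) (hu : u < M) (h : dp_ai_8 j u = true) : Gd g H Lt.ai u := by
  unfold dp_ai_8 at h
  rcases brec_true h with h | h
  · exact lF_good (T := T) (x := Lt.ai) hM0 [Lt.ai, Lt.ai, Lt.z, Lt.b, Lt.ai, Lt.ai, Lt.ai, Lt.b, Lt.ai, Lt.ai, Lt.ai, Lt.b] (hat (rb_3 hy) 11 rfl) h
  · exact lF_good (T := T) (x := Lt.ai) hM0 [Lt.ai, Lt.b, Lt.ai, Lt.ai, Lt.ai, Lt.z, Lt.b, Lt.ai, Lt.ai, Lt.ai, Lt.b, Lt.ai] (hat (rb_3 hy) 8 rfl) h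
theorem dp_ai_9_s (hy : Hy g H)
    (j u : ℕ) (hu : u < M) (h : dp_ai_9 j u = true) : Gd g H Lt.ai u := by
  unfold dp_ai_9 at h
  rcases brec_true h with h | h
  · exact lF_good (T := T) (x := Lt.ai) hM0 [Lt.ai, Lt.b, Lt.ai, Lt.ai, Lt.ai, Lt.b, Lt.ai, Lt.ai, Lt.ai, Lt.z, Lt.b, Lt.ai] (hat (rb_3 hy) 4 rfl) h
  · exact dp_ai_8_s hy j u hu h
theorem dp_ai_10_s (hy : Hy g H)
    (j u : ℕ) (hu : u < M) (h : dp_ai_10 j u = true) : Gd g H Lt.ai u := by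
  unfold dp_ai_10 at h
  rcases brec_true h with h | h
  · exact dp_ai_7_s hy j u hu h
  · exact dp_ai_9_s hy j u hu h
theorem dp_ai_11_s (hy : Hy g H)
    (j u : ℕ) (hu : u < M) (h : dp_ai_11 j u = true) : Gd g H Lt.ai u := by
  unfold dp_ai_11 at h
  rcases brec_true h with h | h
  · exact lS_good (T := T) (x := Lt.ai) hM0 hu [Lt.ai, Lt.b, Lt.a, Lt.a, Lt.b, Lt.ai, Lt.b, Lt.ai, Lt.ai, Lt.b, Lt.a, Lt.a, Lt.b, Lt.ai, Lt.b] (hat (rb_4 hy) 3 rfl) h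
  · exact lF_good (T := T) (x := Lt.ai) hM0 [Lt.b, Lt.ai, Lt.ai, Lt.ai, Lt.z, Lt.b, Lt.ai, Lt.ai, Lt.ai, Lt.b, Lt.ai, Lt.ai] (hat (rb_3 hy) 9 rfl) h
theorem dp_ai_12_s (hy : Hy g H)
    (j u : ℕ) (hu : u < M) (h : dp_ai_12 j u = true) : Gd g H Lt.ai u := by
  unfold dp_ai_12 at h
  rcases brec_true h with h | h
  · exact lF_good (T := T) (x := Lt.ai) hM0 [Lt.ai, Lt.ai, Lt.b, Lt.ai, Lt.ai, Lt.ai, Lt.z, Lt.b, Lt.ai, Lt.ai, Lt.ai, Lt.b] (hat (rb_3 hy) 7 rfl) h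
  · exact dp_ai_11_s hy j u hu h
theorem dp_ai_13_s (hy : Hy g H)
    (j u : ℕ) (hu : u < M) (h : dp_ai_13 j u = true) : Gd g H Lt.ai u := by
  unfold dp_ai_13 at h
  rcases brec_true h with h | h
  · exact lS_good (T := T) (x := Lt.ai) hM0 hu [Lt.b, Lt.ai, Lt.ai, Lt.b, Lt.a, Lt.a, Lt.b, Lt.ai, Lt.b, Lt.ai, Lt.ai, Lt.b, Lt.a, Lt.a, Lt.b] (hat (rb_4 hy) 1 rfl) h
  · exact lS_good (T := T) (x := Lt.ai) hM0 hu [Lt.ai, Lt.b, Lt.a, Lt.a, Lt.b, Lt.a, Lt.b, Lt.ai, Lt.ai, Lt.b, Lt.a, Lt.a, Lt.b, Lt.a, Lt.b] (hat (rf_4 hy) 2 rfl) h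
theorem dp_ai_14_s (hy : Hy g H)
    (j u : ℕ) (hu : u < M) (h : dp_ai_14 j u = true) : Gd g H Lt.ai u := by
  unfold dp_ai_14 at h
  rcases brec_true h with h | h
  · exact lS_good (T := T) (x := Lt.ai) hM0 hu [Lt.ai, Lt.ai, Lt.z, Lt.b, Lt.ai, Lt.ai, Lt.ai, Lt.b, Lt.ai, Lt.ai, Lt.ai, Lt.b] (hat (rb_3 hy) 11 rfl) h
  · exact dp_ai_13_s hy j u hu h
theorem dp_ai_15_s (hy : Hy g H)
    (j u : ℕ) (hu : u < M) (h : dp_ai_15 j u = true) : Gd g H Lt.ai u := by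
  unfold dp_ai_15 at h
  rcases brec_true h with h | h
  · exact dp_ai_12_s hy j u hu h
  · exact dp_ai_14_s hy j u hu h
theorem dp_ai_16_s (hy : Hy g H)
    (j u : ℕ) (hu : u < M) (h : dp_ai_16 j u = true) : Gd g H Lt.ai u := by
  unfold dp_ai_16 at h
  rcases brec_true h with h | h
  · exact dp_ai_10_s hy j u hu h
  · exact dp_ai_15_s hy j u hu h
theorem dp_ai_17_s (hy : Hy g H)
    (j u : ℕ) (hu : u < M) (h : dp_ai_17 j u = true) : Gd g H Lt.ai u := by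
  unfold dp_ai_17 at h
  rcases brec_true h with h | h
  · exact dp_ai_6_s hy j u hu h
  · exact dp_ai_16_s hy j u hu h
theorem dp_ai_18_s (hy : Hy g H)
    (j u : ℕ) (hu : u < M) (h : dp_ai_18 j u = true) : Gd g H Lt.ai u := by
  unfold dp_ai_18 at h
  rcases brec_true h with h | h
  · exact dp_ai_1_s hy j u hu h
  · exact dp_ai_17_s hy j u hu h
theorem dp_ai_19_s (hy : Hy g H)
    (j u : ℕ) (hu : u < M) (h : dp_ai_19 j u = true) : Gd g H Lt.ai u := by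
  unfold dp_ai_19 at h
  rcases brec_true h with h | h
  · rcases brec_true h with h | h
    · exact lF3_good (T := T) (x := Lt.ai) hM0 .zi .a .z (hat (rb_1 hy) 3 rfl) h
    · exact lF3_good (T := T) (x := Lt.ai) hM0 .z .a .zi (hat (rf_1 hy) 0 rfl) h
  · exact dp_ai_18_s hy j u hu h
theorem dp_ai_20_s (hy : Hy g H)
    (j u : ℕ) (hu : u < M) (h : dp_ai_20 j u = true) : Gd g H Lt.ai u := by
  unfold dp_ai_20 at h
  rcases brec_true h with h | h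
  · exact lF1_good (T := T) (x := Lt.ai) hM0 .a (hat (rf_7 hy) 0 rfl) h
  · exact dp_ai_19_s hy j u hu h
theorem snd_ai (hy : Hy g H)
    (j u : ℕ) (hu : u < M) (h : disp_ai j u = true) : Gd g H Lt.ai u := by
  unfold disp_ai at h
  rcases brec_true h with h | h
  · rcases brec_true h with h | h
    · exact lDef_good (T := T) (x := Lt.ai) (by decide) rfl h
    · exact lPar_good (T := T) (x := Lt.ai) (x' := Lt.a) (by decide) rfl (ivt hy _ _ rfl) h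
  · exact dp_ai_20_s hy j u hu h
theorem snc_ai (hy : Hy g H)
    (j u : ℕ) (hu : u < M) (h : chk_ai j u = true) : (T Lt.ai u < A ∧ Gd g H Lt.ai u) ∨ (A ≤ T Lt.ai u ∧ MG u < A) := by
  unfold chk_ai at h
  cases hb : Nat.ble A (T_ai u) with
  | true => rw [hb] at h; exact Or.inr ⟨le_of_ble hb, le_of_ble h⟩
  | false => rw [hb] at h; exact Or.inl ⟨lt_of_ble_false hb, snd_ai hy j u hu h⟩
theorem dp_b_0_s (hy : Hy g H)
    (j u : ℕ) (hu : u < M) (h : dp_b_0 j u = true) : Gd g H Lt.b u := by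
  unfold dp_b_0 at h
  rcases brec_true h with h | h
  · exact lF_good (T := T) (x := Lt.b) hM0 [Lt.a, Lt.a, Lt.a, Lt.b, Lt.zi, Lt.a, Lt.a, Lt.a, Lt.b, Lt.a, Lt.a, Lt.a] (hat (rf_3 hy) 8 rfl) h
  · exact lS_good (T := T) (x := Lt.b) hM0 hu [Lt.a, Lt.a, Lt.b, Lt.ai, Lt.b, Lt.ai, Lt.ai, Lt.b, Lt.a, Lt.a, Lt.b, Lt.ai, Lt.b, Lt.ai, Lt.ai] (hat (rb_4 hy) 5 rfl) h
theorem dp_b_1_s (hy : Hy g H)
    (j u : ℕ) (hu : u < M) (h : dp_b_1 j u = true) : Gd g H Lt.b u := by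
  unfold dp_b_1 at h
  rcases brec_true h with h | h
  · exact lF_good (T := T) (x := Lt.b) hM0 [Lt.a, Lt.a, Lt.a, Lt.b, Lt.a, Lt.a, Lt.a, Lt.b, Lt.zi, Lt.a, Lt.a, Lt.a] (hat (rf_3 hy) 4 rfl) h
  · exact dp_b_0_s hy j u hu h
theorem dp_b_2_s (hy : Hy g H)
    (j u : ℕ) (hu : u < M) (h : dp_b_2 j u = true) : Gd g H Lt.b u := by
  unfold dp_b_2 at h
  rcases brec_true h with h | h
  · exact lS_good (T := T) (x := Lt.b) hM0 hu [Lt.b] (hat (rf_0 hy) 0 rfl) h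
  · exact dp_b_1_s hy j u hu h
theorem dp_b_3_s (hy : Hy g H)
    (j u : ℕ) (hu : u < M) (h : dp_b_3 j u = true) : Gd g H Lt.b u := by
  unfold dp_b_3 at h
  rcases brec_true h with h | h
  · exact lS_good (T := T) (x := Lt.b) hM0 hu [Lt.ai, Lt.ai, Lt.ai, Lt.b, Lt.ai, Lt.ai, Lt.ai, Lt.z, Lt.b, Lt.ai, Lt.ai, Lt.ai] (hat (rb_3 hy) 6 rfl) h
  · exact lF_good (T := T) (x := Lt.b) hM0 [Lt.a, Lt.a, Lt.b, Lt.ai, Lt.b, Lt.ai, Lt.ai, Lt.b, Lt.a, Lt.a, Lt.b, Lt.ai, Lt.b, Lt.ai, Lt.ai] (hat (rb_4 hy) 5 rfl) h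
theorem dp_b_4_s (hy : Hy g H)
    (j u : ℕ) (hu : u < M) (h : dp_b_4 j u = true) : Gd g H Lt.b u := by
  unfold dp_b_4 at h
  rcases brec_true h with h | h
  · exact lS_good (T := T) (x := Lt.b) hM0 hu [Lt.ai, Lt.ai, Lt.b, Lt.a, Lt.a, Lt.b, Lt.a, Lt.b, Lt.ai, Lt.ai, Lt.b, Lt.a, Lt.a, Lt.b, Lt.a] (hat (rf_4 hy) 1 rfl) h
  · exact lS_good (T := T) (x := Lt.b) hM0 hu [Lt.ai, Lt.ai, Lt.ai, Lt.z, Lt.b, Lt.ai, Lt.ai, Lt.ai, Lt.b, Lt.ai, Lt.ai, Lt.ai] (hat (rb_3 hy) 10 rfl) h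
theorem dp_b_5_s (hy : Hy g H)
    (j u : ℕ) (hu : u < M) (h : dp_b_5 j u = true) : Gd g H Lt.b u := by
  unfold dp_b_5 at h
  rcases brec_true h with h | h
  · exact dp_b_3_s hy j u hu h
  · exact dp_b_4_s hy j u hu h
theorem dp_b_6_s (hy : Hy g H)
    (j u : ℕ) (hu : u < M) (h : dp_b_6 j u = true) : Gd g H Lt.b u := by
  unfold dp_b_6 at h
  rcases brec_true h with h | h
  · exact lS_good (T := T) (x := Lt.b) hM0 hu [Lt.a, Lt.a, Lt.a, Lt.b, Lt.a, Lt.a, Lt.a, Lt.b, Lt.zi, Lt.a, Lt.a, Lt.a] (hat (rf_3 hy) 4 rfl) h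
  · exact lS_good (T := T) (x := Lt.b) hM0 hu [Lt.a, Lt.a, Lt.b, Lt.a, Lt.b, Lt.ai, Lt.ai, Lt.b, Lt.a, Lt.a, Lt.b, Lt.a, Lt.b, Lt.ai, Lt.ai] (hat (rf_4 hy) 4 rfl) h
theorem dp_b_7_s (hy : Hy g H)
    (j u : ℕ) (hu : u < M) (h : dp_b_7 j u = true) : Gd g H Lt.b u := by
  unfold dp_b_7 at h
  rcases brec_true h with h | h
  · exact lF_good (T := T) (x := Lt.b) hM0 [Lt.ai, Lt.b, Lt.ai, Lt.ai, Lt.b, Lt.a, Lt.a, Lt.b, Lt.ai, Lt.b, Lt.ai, Lt.ai, Lt.b, Lt.a, Lt.a] (hat (rb_4 hy) 0 rfl) h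
  · exact lS_good (T := T) (x := Lt.b) hM0 hu [Lt.ai, Lt.b, Lt.ai, Lt.ai, Lt.b, Lt.a, Lt.a, Lt.b, Lt.ai, Lt.b, Lt.ai, Lt.ai, Lt.b, Lt.a, Lt.a] (hat (rb_4 hy) 0 rfl) h
theorem dp_b_8_s (hy : Hy g H)
    (j u : ℕ) (hu : u < M) (h : dp_b_8 j u = true) : Gd g H Lt.b u := by
  unfold dp_b_8 at h
  rcases brec_true h with h | h
  · exact dp_b_6_s hy j u hu h
  · exact dp_b_7_s hy j u hu h
theorem dp_b_9_s (hy : Hy g H)
    (j u : ℕ) (hu : u < M) (h : dp_b_9 j u = true) : Gd g H Lt.b u := by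
  unfold dp_b_9 at h
  rcases brec_true h with h | h
  · exact lF_good (T := T) (x := Lt.b) hM0 [Lt.ai, Lt.ai, Lt.ai, Lt.b, Lt.ai, Lt.ai, Lt.ai, Lt.b, Lt.ai, Lt.ai, Lt.ai, Lt.z] (hat (rb_3 hy) 2 rfl) h
  · exact lF_good (T := T) (x := Lt.b) hM0 [Lt.zi, Lt.a, Lt.a, Lt.a, Lt.b, Lt.a, Lt.a, Lt.a, Lt.b, Lt.a, Lt.a, Lt.a] (hat (rf_3 hy) 12 rfl) h
theorem dp_b_10_s (hy : Hy g H)
    (j u : ℕ) (hu : u < M) (h : dp_b_10 j u = true) : Gd g H Lt.b u := by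
  unfold dp_b_10 at h
  rcases brec_true h with h | h
  · exact lS_good (T := T) (x := Lt.b) hM0 hu [Lt.a, Lt.b, Lt.ai, Lt.ai, Lt.b, Lt.a, Lt.a, Lt.b, Lt.a, Lt.b, Lt.ai, Lt.ai, Lt.b, Lt.a, Lt.a] (hat (rf_4 hy) 7 rfl) h
  · exact lF_good (T := T) (x := Lt.b) hM0 [Lt.ai, Lt.ai, Lt.ai, Lt.b, Lt.ai, Lt.ai, Lt.ai, Lt.z, Lt.b, Lt.ai, Lt.ai, Lt.ai] (hat (rb_3 hy) 6 rfl) h
theorem dp_b_11_s (hy : Hy g H)
    (j u : ℕ) (hu : u < M) (h : dp_b_11 j u = true) : Gd g H Lt.b u := by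
  unfold dp_b_11 at h
  rcases brec_true h with h | h
  · exact dp_b_9_s hy j u hu h
  · exact dp_b_10_s hy j u hu h
theorem dp_b_12_s (hy : Hy g H)
    (j u : ℕ) (hu : u < M) (h : dp_b_12 j u = true) : Gd g H Lt.b u := by
  unfold dp_b_12 at h
  rcases brec_true h with h | h
  · exact dp_b_8_s hy j u hu h
  · exact dp_b_11_s hy j u hu h
theorem dp_b_13_s (hy : Hy g H)
    (j u : ℕ) (hu : u < M) (h : dp_b_13 j u = true) : Gd g H Lt.b u := by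
  unfold dp_b_13 at h
  rcases brec_true h with h | h
  · exact dp_b_5_s hy j u hu h
  · exact dp_b_12_s hy j u hu h
theorem dp_b_14_s (hy : Hy g H)
    (j u : ℕ) (hu : u < M) (h : dp_b_14 j u = true) : Gd g H Lt.b u := by
  unfold dp_b_14 at h
  rcases brec_true h with h | h
  · exact dp_b_2_s hy j u hu h
  · exact dp_b_13_s hy j u hu h
theorem dp_b_15_s (hy : Hy g H)
    (j u : ℕ) (hu : u < M) (h : dp_b_15 j u = true) : Gd g H Lt.b u := by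
  unfold dp_b_15 at h
  rcases brec_true h with h | h
  · exact lF3_good (T := T) (x := Lt.b) hM0 .z .b .zi (hat (rf_2 hy) 0 rfl) h
  · exact dp_b_14_s hy j u hu h
theorem dp_b_16_s (hy : Hy g H)
    (j u : ℕ) (hu : u < M) (h : dp_b_16 j u = true) : Gd g H Lt.b u := by
  unfold dp_b_16 at h
  rcases brec_true h with h | h
  · exact lF3_good (T := T) (x := Lt.b) hM0 .zi .b .z (hat (rf_2 hy) 2 rfl) h
  · exact dp_b_15_s hy j u hu h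
theorem dp_b_17_s (hy : Hy g H)
    (j u : ℕ) (hu : u < M) (h : dp_b_17 j u = true) : Gd g H Lt.b u := by
  unfold dp_b_17 at h
  rcases brec_true h with h | h
  · exact lF1_good (T := T) (x := Lt.b) hM0 .b (hat (rf_0 hy) 0 rfl) h
  · exact dp_b_16_s hy j u hu h
theorem snd_b (hy : Hy g H)
    (j u : ℕ) (hu : u < M) (h : disp_b j u = true) : Gd g H Lt.b u := by
  unfold disp_b at h
  rcases brec_true h with h | h
  · rcases brec_true h with h | h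
    · exact lDef_good (T := T) (x := Lt.b) (by decide) rfl h
    · exact lPar_good (T := T) (x := Lt.b) (x' := Lt.b) (by decide) rfl (ivt hy _ _ rfl) h
  · exact dp_b_17_s hy j u hu h
theorem snc_b (hy : Hy g H)
    (j u : ℕ) (hu : u < M) (h : chk_b j u = true) : (T Lt.b u < A ∧ Gd g H Lt.b u) ∨ (A ≤ T Lt.b u ∧ MG u < A) := by
  unfold chk_b at h
  cases hb : Nat.ble A (T_b u) with
  | true => rw [hb] at h; exact Or.inr ⟨le_of_ble hb, le_of_ble h⟩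
  | false => rw [hb] at h; exact Or.inl ⟨lt_of_ble_false hb, snd_b hy j u hu h⟩
theorem dp_z_0_s (hy : Hy g H)
    (j u : ℕ) (hu : u < M) (h : dp_z_0 j u = true) : Gd g H Lt.z u := by
  unfold dp_z_0 at h
  rcases brec_true h with h | h
  · exact lF3_good (T := T) (x := Lt.z) hM0 .a .zi .ai (hat (rf_1 hy) 1 rfl) h
  · exact lS_good (T := T) (x := Lt.z) hM0 hu [Lt.b, Lt.zi, Lt.b] (hat (rf_2 hy) 1 rfl) h
theorem dp_z_1_s (hy : Hy g H)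
    (j u : ℕ) (hu : u < M) (h : dp_z_1 j u = true) : Gd g H Lt.z u := by
  unfold dp_z_1 at h
  rcases brec_true h with h | h
  · exact lS_good (T := T) (x := Lt.z) hM0 hu [Lt.ai, Lt.zi, Lt.a] (hat (rb_1 hy) 2 rfl) h
  · exact lS_good (T := T) (x := Lt.z) hM0 hu [Lt.zi] (hat (rf_9 hy) 1 rfl) h
theorem dp_z_2_s (hy : Hy g H)
    (j u : ℕ) (hu : u < M) (h : dp_z_2 j u = true) : Gd g H Lt.z u := by
  unfold dp_z_2 at h
  rcases brec_true h with h | h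
  · exact lF3_good (T := T) (x := Lt.z) hM0 .ai .zi .a (hat (rb_1 hy) 2 rfl) h
  · exact lS_good (T := T) (x := Lt.z) hM0 hu [Lt.a, Lt.zi, Lt.ai] (hat (rf_1 hy) 1 rfl) h
theorem dp_z_3_s (hy : Hy g H)
    (j u : ℕ) (hu : u < M) (h : dp_z_3 j u = true) : Gd g H Lt.z u := by
  unfold dp_z_3 at h
  rcases brec_true h with h | h
  · exact dp_z_1_s hy j u hu h
  · exact dp_z_2_s hy j u hu h
theorem snd_z (hy : Hy g H)
    (j u : ℕ) (hu : u < M) (h : disp_z j u = true) : Gd g H Lt.z u := by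
  unfold disp_z at h
  rcases brec_true h with h | h
  · rcases brec_true h with h | h
    · exact lDef_good (T := T) (x := Lt.z) (by decide) rfl h
    · exact lPar_good (T := T) (x := Lt.z) (x' := Lt.zi) (by decide) rfl (ivt hy _ _ rfl) h
  · rcases brec_true h with h | h
    · rcases brec_true h with h | h
      · exact lF1_good (T := T) (x := Lt.z) hM0 .zi (hat (rf_9 hy) 1 rfl) h
      · exact lF3_good (T := T) (x := Lt.z) hM0 .b .zi .b (hat (rf_2 hy) 1 rfl) h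
    · rcases brec_true h with h | h
      · exact dp_z_0_s hy j u hu h
      · exact dp_z_3_s hy j u hu h
theorem snc_z (hy : Hy g H)
    (j u : ℕ) (hu : u < M) (h : chk_z j u = true) : (T Lt.z u < A ∧ Gd g H Lt.z u) ∨ (A ≤ T Lt.z u ∧ MG u < A) := by
  unfold chk_z at h
  cases hb : Nat.ble A (T_z u) with
  | true => rw [hb] at h; exact Or.inr ⟨le_of_ble hb, le_of_ble h⟩
  | false => rw [hb] at h; exact Or.inl ⟨lt_of_ble_false hb, snd_z hy j u hu h⟩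
theorem dp_zi_0_s (hy : Hy g H)
    (j u : ℕ) (hu : u < M) (h : dp_zi_0 j u = true) : Gd g H Lt.zi u := by
  unfold dp_zi_0 at h
  rcases brec_true h with h | h
  · exact lS_good (T := T) (x := Lt.zi) hM0 hu [Lt.ai, Lt.z, Lt.a] (hat (rf_1 hy) 3 rfl) h
  · exact lS_good (T := T) (x := Lt.zi) hM0 hu [Lt.b, Lt.z, Lt.b] (hat (rf_2 hy) 3 rfl) h
theorem dp_zi_1_s (hy : Hy g H)
    (j u : ℕ) (hu : u < M) (h : dp_zi_1 j u = true) : Gd g H Lt.zi u := by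
  unfold dp_zi_1 at h
  rcases brec_true h with h | h
  · exact lF_good (T := T) (x := Lt.zi) hM0 [Lt.a, Lt.a, Lt.a, Lt.b, Lt.a, Lt.a, Lt.a, Lt.b, Lt.a, Lt.a, Lt.a, Lt.b] (hat (rf_3 hy) 0 rfl) h
  · exact dp_zi_0_s hy j u hu h
theorem dp_zi_2_s (hy : Hy g H)
    (j u : ℕ) (hu : u < M) (h : dp_zi_2 j u = true) : Gd g H Lt.zi u := by
  unfold dp_zi_2 at h
  rcases brec_true h with h | h
  · exact lS_good (T := T) (x := Lt.zi) hM0 hu [Lt.z] (hat (rf_9 hy) 0 rfl) h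
  · exact dp_zi_1_s hy j u hu h
theorem dp_zi_3_s (hy : Hy g H)
    (j u : ℕ) (hu : u < M) (h : dp_zi_3 j u = true) : Gd g H Lt.zi u := by
  unfold dp_zi_3 at h
  rcases brec_true h with h | h
  · exact lF3_good (T := T) (x := Lt.zi) hM0 .b .z .b (hat (rf_2 hy) 3 rfl) h
  · exact dp_zi_2_s hy j u hu h
theorem snd_zi (hy : Hy g H)
    (j u : ℕ) (hu : u < M) (h : disp_zi j u = true) : Gd g H Lt.zi u := by
  unfold disp_zi at h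
  rcases brec_true h with h | h
  · rcases brec_true h with h | h
    · exact lPar_good (T := T) (x := Lt.zi) (x' := Lt.z) (by decide) rfl (ivt hy _ _ rfl) h
    · exact lDef_good (T := T) (x := Lt.zi) (by decide) rfl h
  · rcases brec_true h with h | h
    · exact lF1_good (T := T) (x := Lt.zi) hM0 .z (hat (rf_9 hy) 0 rfl) h
    · rcases brec_true h with h | h
      · exact lF3_good (T := T) (x := Lt.zi) hM0 .ai .z .a (hat (rf_1 hy) 3 rfl) h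
      · rcases brec_true h with h | h
        · exact lF3_good (T := T) (x := Lt.zi) hM0 .a .z .ai (hat (rb_1 hy) 0 rfl) h
        · exact dp_zi_3_s hy j u hu h
theorem snc_zi (hy : Hy g H)
    (j u : ℕ) (hu : u < M) (h : chk_zi j u = true) : (T Lt.zi u < A ∧ Gd g H Lt.zi u) ∨ (A ≤ T Lt.zi u ∧ MG u < A) := by
  unfold chk_zi at h
  cases hb : Nat.ble A (T_zi u) with
  | true => rw [hb] at h; exact Or.inr ⟨le_of_ble hb, le_of_ble h⟩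
  | false => rw [hb] at h; exact Or.inl ⟨lt_of_ble_false hb, snd_zi hy j u hu h⟩
theorem dM_0_s (hy : Hy g H) (j z1 z2 u : ℕ) (h : dM_0 j z1 z2 u = true) : GdM g H u := by
  unfold dM_0 at h
  rcases brec_true h with h | h
  · exact mCo_good (T := T) (y := .zi) hM0 h
  · rcases brec_true h with h | h
    · exact mCo_good (T := T) (y := .ai) hM0 h
    · exact mCo_good (T := T) (y := .b) hM0 h
theorem dM_1_s (hy : Hy g H) (j z1 z2 u : ℕ) (h : dM_1 j z1 z2 u = true) : GdM g H u := by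
  unfold dM_1 at h
  exact mCo_good (T := T) (y := .a) hM0 h
theorem dM_2_s (hy : Hy g H) (j z1 z2 u : ℕ) (h : dM_2 j z1 z2 u = true) : GdM g H u := by
  unfold dM_2 at h
  exact mCo_good (T := T) (y := .z) hM0 h
theorem dM_3_s (hy : Hy g H) (j z1 z2 u : ℕ) (h : dM_3 j z1 z2 u = true) : GdM g H u := by
  unfold dM_3 at h
  rcases brec_true h with h | h
  · rcases brec_true h with h | h
    · exact mRel_good (T := T) hM0 [Lt.ai, Lt.zi] [Lt.zi, Lt.ai] (pat hy (rb_1 hy) 2 rfl) h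
    · exact mRel_good (T := T) hM0 [Lt.z, Lt.a] [Lt.a, Lt.z] (pat hy (rf_1 hy) 0 rfl) h
  · rcases brec_true h with h | h
    · exact mRel_good (T := T) hM0 [Lt.a, Lt.b, Lt.a, Lt.a] [Lt.ai, Lt.ai, Lt.z, Lt.b, Lt.ai, Lt.ai, Lt.ai, Lt.b, Lt.ai] (pat hy (rf_3 hy) 2 rfl) h
    · rcases brec_true h with h | h
      · exact mRel_good (T := T) hM0 [Lt.z, Lt.z, Lt.z, Lt.z, Lt.z, Lt.z, Lt.z, Lt.z, Lt.z, Lt.z, Lt.z, Lt.z, Lt.z, Lt.z, Lt.z, Lt.z, Lt.z, Lt.z, Lt.z, Lt.z, Lt.z, Lt.z, Lt.z, Lt.z, Lt.z, Lt.z, Lt.z, Lt.z, Lt.z, Lt.z, Lt.z, Lt.z, Lt.z, Lt.z, Lt.z, Lt.z, Lt.z, Lt.z, Lt.z, Lt.z, Lt.z, Lt.z, Lt.z, Lt.z, Lt.z, Lt.z, Lt.z, Lt.z, Lt.z, Lt.z, Lt.z, Lt.z, Lt.z, Lt.z, Lt.z, Lt.z, Lt.z, Lt.z, Lt.z, Lt.z, Lt.z, Lt.z, Lt.z, Lt.z, Lt.z, Lt.z, Lt.z, Lt.z, Lt.z, Lt.z, Lt.z, Lt.z, Lt.z, Lt.z, Lt.z, Lt.z, Lt.z, Lt.z, Lt.z, Lt.z, Lt.z, Lt.z, Lt.z, Lt.z, Lt.z,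 Lt.z, Lt.z, Lt.z, Lt.z, Lt.z, Lt.z, Lt.z, Lt.z, Lt.z, Lt.z, Lt.z, Lt.z, Lt.z, Lt.z, Lt.z, Lt.z, Lt.z, Lt.z, Lt.z, Lt.z] [] (pat hy (rf_6 hy) 0 rfl) h
      · exact mRel_good (T := T) hM0 [Lt.ai, Lt.b, Lt.ai, Lt.ai, Lt.b, Lt.a, Lt.a, Lt.b] [Lt.b, Lt.ai, Lt.ai, Lt.b, Lt.a, Lt.a, Lt.b, Lt.a] (pat hy (rb_4 hy) 0 rfl) h
theorem dM_4_s (hy : Hy g H) (j z1 z2 u : ℕ) (h : dM_4 j z1 z2 u = true) : GdM g H u := by
  unfold dM_4 at h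
  rcases brec_true h with h | h
  · rcases brec_true h with h | h
    · rcases brec_true h with h | h
      · exact mRel_good (T := T) hM0 [Lt.b, Lt.ai, Lt.ai, Lt.ai] [Lt.a, Lt.a, Lt.a, Lt.b, Lt.a, Lt.a, Lt.a, Lt.b, Lt.zi] (pat hy (rb_3 hy) 9 rfl) h
      · exact mRel_good (T := T) hM0 [Lt.zi, Lt.a] [Lt.a, Lt.zi] (pat hy (rb_1 hy) 3 rfl) h
    · rcases brec_true h with h | h
      · exact mRel_good (T := T) hM0 [Lt.z, Lt.b] [Lt.b, Lt.z] (pat hy (rf_2 hy) 0 rfl) h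
      · exact mRel_good (T := T) hM0 [Lt.ai, Lt.z] [Lt.z, Lt.ai] (pat hy (rf_1 hy) 3 rfl) h
  · rcases brec_true h with h | h
    · rcases brec_true h with h | h
      · exact mRel_good (T := T) hM0 [Lt.a, Lt.b, Lt.ai, Lt.b, Lt.ai, Lt.ai, Lt.b, Lt.a, Lt.a] [Lt.ai, Lt.b, Lt.a, Lt.a, Lt.b, Lt.a, Lt.b] (pat hy (rb_4 hy) 6 rfl) h
      · exact mRel_good (T := T) hM0 [Lt.ai, Lt.ai, Lt.b, Lt.a, Lt.a, Lt.b] [Lt.b, Lt.a, Lt.b, Lt.ai, Lt.ai, Lt.b, Lt.a, Lt.a, Lt.b, Lt.a] (pat hy (rb_4 hy) 2 rfl) h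
    · rcases brec_true h with h | h
      · exact mRel_good (T := T) hM0 [Lt.b, Lt.a, Lt.a, Lt.a] [Lt.ai, Lt.ai, Lt.ai, Lt.z, Lt.b, Lt.ai, Lt.ai, Lt.ai, Lt.b] (pat hy (rf_3 hy) 3 rfl) h
      · rcases brec_true h with h | h
        · exact mRel_good (T := T) hM0 [Lt.a, Lt.b, Lt.a, Lt.b, Lt.ai, Lt.ai, Lt.b, Lt.a, Lt.a, Lt.b, Lt.a, Lt.b, Lt.ai] [Lt.ai, Lt.b, Lt.a] (pat hy (rf_4 hy) 5 rfl) h
        · exact mRel_good (T := T) hM0 [Lt.a, Lt.z] [Lt.z, Lt.a] (pat hy (rb_1 hy) 0 rfl) h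
theorem dM_5_s (hy : Hy g H) (j z1 z2 u : ℕ) (h : dM_5 j z1 z2 u = true) : GdM g H u := by
  unfold dM_5 at h
  rcases brec_true h with h | h
  · exact dM_3_s hy j z1 z2 u h
  · exact dM_4_s hy j z1 z2 u h
theorem dM_6_s (hy : Hy g H) (j z1 z2 u : ℕ) (h : dM_6 j z1 z2 u = true) : GdM g H u := by
  unfold dM_6 at h
  rcases brec_true h with h | h
  · rcases brec_true h with h | h
    · rcases brec_true h with h | h
      · exact mRel_good (T := T) hM0 [Lt.a, Lt.b, Lt.ai, Lt.ai, Lt.b, Lt.a, Lt.a, Lt.b, Lt.a, Lt.b] [Lt.b, Lt.ai, Lt.ai, Lt.b, Lt.a, Lt.a] (pat hy (rf_4 hy) 7 rfl) h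
      · exact mRel_good (T := T) hM0 [Lt.a, Lt.a, Lt.a] [Lt.z, Lt.b, Lt.ai, Lt.ai, Lt.ai, Lt.b, Lt.ai, Lt.ai, Lt.ai, Lt.b] (pat hy (rf_3 hy) 0 rfl) h
    · rcases brec_true h with h | h
      · exact mRel_good (T := T) hM0 [Lt.ai, Lt.ai, Lt.b, Lt.ai, Lt.ai, Lt.ai] [Lt.a, Lt.b, Lt.zi, Lt.a, Lt.a, Lt.a, Lt.b] (pat hy (rb_3 hy) 3 rfl) h
      · exact mRel_good (T := T) hM0 [Lt.a, Lt.b, Lt.a, Lt.a, Lt.a] [Lt.ai, Lt.ai, Lt.z, Lt.b, Lt.ai, Lt.ai, Lt.ai, Lt.b] (pat hy (rf_3 hy) 2 rfl) h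
  · rcases brec_true h with h | h
    · rcases brec_true h with h | h
      · exact mRel_good (T := T) hM0 [Lt.a, Lt.a, Lt.b, Lt.a, Lt.a, Lt.a, Lt.b] [Lt.ai, Lt.z, Lt.b, Lt.ai, Lt.ai, Lt.ai] (pat hy (rf_3 hy) 1 rfl) h
      · exact mRel_good (T := T) hM0 [Lt.b, Lt.a, Lt.a] [Lt.ai, Lt.ai, Lt.ai, Lt.z, Lt.b, Lt.ai, Lt.ai, Lt.ai, Lt.b, Lt.ai] (pat hy (rf_3 hy) 3 rfl) h
    · rcases brec_true h with h | h
      · exact mRel_good (T := T) hM0 [Lt.b, Lt.ai, Lt.ai, Lt.b, Lt.a, Lt.a, Lt.b, Lt.ai, Lt.b, Lt.ai, Lt.ai, Lt.b, Lt.a, Lt.a, Lt.b, Lt.ai] [] (pat hy (rb_4 hy) 1 rfl) h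
      · rcases brec_true h with h | h
        · exact mRel_good (T := T) hM0 [Lt.a, Lt.a, Lt.b, Lt.a, Lt.a, Lt.a, Lt.b, Lt.a] [Lt.ai, Lt.z, Lt.b, Lt.ai, Lt.ai] (pat hy (rf_3 hy) 1 rfl) h
        · exact mRel_good (T := T) hM0 [Lt.b, Lt.a, Lt.a, Lt.b, Lt.ai, Lt.b, Lt.ai, Lt.ai, Lt.b, Lt.a] [Lt.a, Lt.a, Lt.b, Lt.a, Lt.b, Lt.ai] (pat hy (rb_4 hy) 4 rfl) h
theorem dM_7_s (hy : Hy g H) (j z1 z2 u : ℕ) (h : dM_7 j z1 z2 u = true) : GdM g H u := by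
  unfold dM_7 at h
  rcases brec_true h with h | h
  · rcases brec_true h with h | h
    · rcases brec_true h with h | h
      · exact mRel_good (T := T) hM0 [Lt.b, Lt.a, Lt.a, Lt.b, Lt.ai, Lt.b, Lt.ai] [Lt.a, Lt.a, Lt.b, Lt.a, Lt.b, Lt.ai, Lt.ai, Lt.b, Lt.a] (pat hy (rb_4 hy) 4 rfl) h
      · exact mRel_good (T := T) hM0 [Lt.b, Lt.a, Lt.a, Lt.a, Lt.b, Lt.a, Lt.a, Lt.a, Lt.b, Lt.zi, Lt.a] [Lt.ai, Lt.ai] (pat hy (rf_3 hy) 3 rfl) h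
    · rcases brec_true h with h | h
      · exact mRel_good (T := T) hM0 [Lt.ai, Lt.ai, Lt.b, Lt.a, Lt.a, Lt.b, Lt.ai, Lt.b, Lt.ai] [Lt.b, Lt.a, Lt.b, Lt.ai, Lt.ai, Lt.b, Lt.a] (pat hy (rb_4 hy) 2 rfl) h
      · exact mRel_good (T := T) hM0 [Lt.a, Lt.a, Lt.b, Lt.a, Lt.b, Lt.ai, Lt.ai, Lt.b, Lt.a, Lt.a, Lt.b, Lt.a, Lt.b, Lt.ai, Lt.ai] [Lt.b] (pat hy (rf_4 hy) 4 rfl) h
  · rcases brec_true h with h | h
    · rcases brec_true h with h | h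
      · exact mRel_good (T := T) hM0 [Lt.ai, Lt.ai, Lt.b, Lt.ai, Lt.ai] [Lt.a, Lt.b, Lt.zi, Lt.a, Lt.a, Lt.a, Lt.b, Lt.a] (pat hy (rb_3 hy) 3 rfl) h
      · exact mRel_good (T := T) hM0 [Lt.ai, Lt.ai] [Lt.b, Lt.zi, Lt.a, Lt.a, Lt.a, Lt.b, Lt.a, Lt.a, Lt.a, Lt.b, Lt.a] (pat hy (rb_3 hy) 2 rfl) h
    · rcases brec_true h with h | h
      · exact mRel_good (T := T) hM0 [Lt.ai, Lt.ai, Lt.b, Lt.ai, Lt.ai, Lt.ai, Lt.b] [Lt.a, Lt.b, Lt.zi, Lt.a, Lt.a, Lt.a] (pat hy (rb_3 hy) 3 rfl) h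
      · rcases brec_true h with h | h
        · exact mRel_good (T := T) hM0 [Lt.ai, Lt.b, Lt.ai, Lt.ai, Lt.ai, Lt.b, Lt.ai, Lt.ai, Lt.ai, Lt.z, Lt.b] [Lt.a, Lt.a] (pat hy (rb_3 hy) 4 rfl) h
        · exact mRel_good (T := T) hM0 [Lt.ai, Lt.ai, Lt.ai, Lt.b] [Lt.b, Lt.zi, Lt.a, Lt.a, Lt.a, Lt.b, Lt.a, Lt.a, Lt.a] (pat hy (rb_3 hy) 2 rfl) h
theorem dM_8_s (hy : Hy g H) (j z1 z2 u : ℕ) (h : dM_8 j z1 z2 u = true) : GdM g H u := by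
  unfold dM_8 at h
  rcases brec_true h with h | h
  · exact dM_6_s hy j z1 z2 u h
  · exact dM_7_s hy j z1 z2 u h
theorem dM_9_s (hy : Hy g H) (j z1 z2 u : ℕ) (h : dM_9 j z1 z2 u = true) : GdM g H u := by
  unfold dM_9 at h
  rcases brec_true h with h | h
  · exact dM_5_s hy j z1 z2 u h
  · exact dM_8_s hy j z1 z2 u h
theorem dM_10_s (hy : Hy g H) (j z1 z2 u : ℕ) (h : dM_10 j z1 z2 u = true) : GdM g H u := by
  unfold dM_10 at h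
  rcases brec_true h with h | h
  · exact dM_2_s hy j z1 z2 u h
  · exact dM_9_s hy j z1 z2 u h
theorem dM_11_s (hy : Hy g H) (j z1 z2 u : ℕ) (h : dM_11 j z1 z2 u = true) : GdM g H u := by
  unfold dM_11 at h
  rcases brec_true h with h | h
  · exact dM_1_s hy j z1 z2 u h
  · exact dM_10_s hy j z1 z2 u h
theorem dM_12_s (hy : Hy g H) (j z1 z2 u : ℕ) (h : dM_12 j z1 z2 u = true) : GdM g H u := by
  unfold dM_12 at h
  rcases brec_true h with h | h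
  · exact dM_0_s hy j z1 z2 u h
  · exact dM_11_s hy j z1 z2 u h
theorem sndM (hy : Hy g H) (u : ℕ) (h : chkM u = true) :
    MG u < A → MG u % M < u ∧ GdM g H u := by
  intro hA
  unfold chkM at h
  cases hb : Nat.ble A (MG u) with
  | true => exact absurd (le_of_ble hb) (by omega)
  | false =>
    rw [hb] at h
    obtain ⟨h1, h2⟩ := band_eq_true.1 h
    exact ⟨le_of_ble h1, dM_12_s hy _ _ _ _ h2⟩
theorem sndN (hy : Hy g H)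
    (u : ℕ) (hu : u < M) (h : chkP u = true) : (∀ x, (T x u < A ∧ Gd g H x u) ∨ (A ≤ T x u ∧ MG u < A)) ∧ (MG u < A → MG u % M < u ∧ GdM g H u) := by
  unfold chkP at h
  cases hb : Nat.ble M u with
  | true => exact absurd (le_of_ble hb) (by omega)
  | false =>
    rw [hb] at h
    change chkN u = true at h
    unfold chkN at h
    obtain ⟨h0, h⟩ := band_eq_true.1 h
    obtain ⟨h1, h⟩ := band_eq_true.1 h
    obtain ⟨h2, h⟩ := band_eq_true.1 h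
    obtain ⟨h3, h⟩ := band_eq_true.1 h
    obtain ⟨h4, h⟩ := band_eq_true.1 h
    refine ⟨?_, sndM hy u h⟩
    intro x
    cases x
    · exact snc_a hy _ u hu h0
    · exact snc_ai hy _ u hu h1
    · exact snc_b hy _ u hu h2
    · exact snc_z hy _ u hu h3
    · exact snc_zi hy _ u hu h4
theorem final (hinv : ∀ x, g (inv x) = (g x)⁻¹) (hr : ∀ r ∈ rels, (r.map g).prod = 1) (hH : ∀ r ∈ subs, (r.map g).prod ∈ H)
    (hall : ∀ u, u < M → chkP u = true) (hc : cntB liveP 10 0 = 240) :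
    H.relIndex (Subgroup.closure (Set.range g)) ≤ 240 ∧ H.relIndex (Subgroup.closure (Set.range g)) ≠ 0 := by
  have hn := fun u hu => sndN ⟨hinv, hr, hH⟩ u hu (hall u hu)
  have h1 : ∀ x u, u < M → T x u < A → Good (fa g) T MG M (cP g H) x u := by
    intro x u hu hx
    rcases (hn u hu).1 x with h | h
    · exact h.2
    · exact absurd h.1 (by omega)
  have h2 : ∀ u, u < M → MG u < A → GoodM (fa g) T MG M (cP g H) u := fun u hu h => ((hn u hu).2 h).2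
  refine relIndex_le (M := M) (A := A) (T := T) (MG := MG) (c := cP g H) (by decide) cc_zero (sound_of_good h1 h2) ?_ ?_ ?_
  · intro u hu h
    exact ((hn u hu).2 h).1
  · intro x u hu h
    rcases (hn u hu).1 x with h' | h'
    · exact h'.1
    · exact absurd h'.2 (by omega)
  · rw [← hc, ← cntB_spec]
    apply Finset.card_le_card
    intro u
    simp only [Finset.mem_filter, Finset.mem_Ico]
    rintro ⟨⟨_, h3⟩, h4⟩
    refine ⟨⟨Nat.zero_le _, lt_of_lt_of_le h3 (by decide)⟩, ?_⟩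
    unfold liveP
    cases hb : Nat.ble M u with
    | true => exact absurd (le_of_ble hb) (by omega)
    | false => exact h4
end
end H35.TCMHeF
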